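import Mathlib

set_option autoImplicit false

open Matrix

namespace Cfsg.Agent.Helper23

/-- The rank of a block diagonal matrix is the sum of the ranks of the blocks. -/
theorem jo_rank_fromBlocks {F : Type*} [Field F] {m₁ m₂ n₁ n₂ : Type*} [Fintype m₁] [Fintype m₂]
    [Fintype n₁] [Fintype n₂] (A : Matrix n₁ m₁ F) (B : Matrix n₂ m₂ F) :
    (fromBlocks A 0 0 B).rank = A.rank + B.rank := by
  classical
  have hcomp : (fromBlocks A 0 0 B).mulVecLin =
      ((LinearEquiv.sumArrowLequivProdArrow n₁ n₂ F F).symm : _ →ₗ[F] _) ∘ₗ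
        (A.mulVecLin.prodMap B.mulVecLin) ∘ₗ
          ((LinearEquiv.sumArrowLequivProdArrow m₁ m₂ F F) : _ →ₗ[F] _) := by
    apply LinearMap.ext
    intro v
    funext i
    cases i with
    | inl i => simp [Matrix.mulVec, dotProduct, Fintype.sum_sum_type]
    | inr i => simp [Matrix.mulVec, dotProduct, Fintype.sum_sum_type]
  have hrange : LinearMap.range (fromBlocks A 0 0 B).mulVecLin =
      (LinearMap.range (A.mulVecLin.prodMap B.mulVecLin)).map
        ((LinearEquiv.sumArrowLequivProdArrow n₁ n₂ F F).symm : _ →ₗ[F] _) := by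
    rw [hcomp, LinearMap.range_comp, LinearMap.range_comp, LinearEquiv.range, Submodule.map_top]
  have hφ : (LinearMap.range A.mulVecLin).prod (LinearMap.range B.mulVecLin) =
      LinearMap.range ((LinearMap.range A.mulVecLin).subtype.prodMap
        (LinearMap.range B.mulVecLin).subtype) := by
    rw [LinearMap.range_prodMap, Submodule.range_subtype, Submodule.range_subtype]
  have hinj : Function.Injective ((LinearMap.range A.mulVecLin).subtype.prodMap
        (LinearMap.range B.mulVecLin).subtype) := by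
    rw [LinearMap.coe_prodMap]
    exact Function.Injective.prodMap (Submodule.injective_subtype _) (Submodule.injective_subtype _)
  rw [Matrix.rank, hrange, LinearEquiv.finrank_map_eq, LinearMap.range_prodMap, hφ,
    LinearMap.finrank_range_of_inj hinj, Module.finrank_prod]
  rfl

theorem jo_combine {F : Type*} [Field F] {κ₁ κ₂ : Type} [Fintype κ₁] [DecidableEq κ₁]
    [Fintype κ₂] [DecidableEq κ₂] (A₁ M₁ : Matrix κ₁ κ₁ F) (A₂ M₂ : Matrix κ₂ κ₂ F)
    (h1s : M₁ᵀ = M₁) (h1d : M₁.det ≠ 0) (h1i : A₁ᵀ * M₁ * A₁ = M₁)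
    (h2s : M₂ᵀ = M₂) (h2d : M₂.det ≠ 0) (h2i : A₂ᵀ * M₂ * A₂ = M₂) :
    (fromBlocks M₁ 0 0 M₂)ᵀ = fromBlocks M₁ 0 0 M₂ ∧ (fromBlocks M₁ 0 0 M₂).det ≠ 0 ∧
    (fromBlocks A₁ 0 0 A₂)ᵀ * fromBlocks M₁ 0 0 M₂ * fromBlocks A₁ 0 0 A₂ =
      fromBlocks M₁ 0 0 M₂ ∧
    ∀ k, ((fromBlocks A₁ 0 0 A₂ - 1) ^ k).rank = ((A₁ - 1) ^ k).rank + ((A₂ - 1) ^ k).rank := by
  refine ⟨?_, ?_, ?_, ?_⟩
  · rw [fromBlocks_transpose, h1s, h2s]
    simp
  · rw [det_fromBlocks_zero₂₁]
    exact mul_ne_zero h1d h2d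
  · rw [fromBlocks_transpose, fromBlocks_multiply, fromBlocks_multiply]
    simp [h1i, h2i]
  · intro k
    have e : fromBlocks A₁ 0 0 A₂ - 1 = fromBlocks (A₁ - 1) 0 0 (A₂ - 1) := by
      ext i j
      rcases i with i | i <;> rcases j with j | j <;> simp [Matrix.one_apply]
    rw [e, fromBlocks_diagonal_pow, jo_rank_fromBlocks]

theorem exists_of_blocks {F : Type*} [Field F] (s : Multiset ℕ) (hpar : ∀ j, Even j → Even (s.count j)) (hodd : ∀ d, Odd d → ∃ A M : Matrix (Fin d) (Fin d) F, Mᵀ = M ∧ M.det ≠ 0 ∧ Aᵀ * M * A = M ∧ ∀ k, ((A - 1) ^ k).rank = d - k) (hpair : ∀ d, ∃ A M : Matrix (Fin d ⊕ Fin d) (Fin d ⊕ Fin d) F, Mᵀ = M ∧ M.det ≠ 0 ∧ Aᵀ * M * A = M ∧ ∀ k, ((A - 1) ^ k).rank = (d - k) + (d - k)) : ∃ (κ : Type) (_ : Fintype κ) (_ : DecidableEq κ) (A M : Matrix κ κ F), Mᵀ = M ∧ M.det ≠ 0 ∧ Aᵀ * M * A = M ∧ Fintype.card κ = s.sum ∧ ∀ k, ((A - 1) ^ k).rank = (s.map (fun a => a - k)).sum := by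
  induction' hn : Multiset.card s using Nat.strong_induction_on with n ih generalizing s
  rcases Multiset.empty_or_exists_mem s with hs | ⟨a, ha⟩
  · subst hs
    refine ⟨Empty, inferInstance, inferInstance, 0, 0, ?_, ?_, ?_, ?_, ?_⟩
    · simp
    · simp
    · simp
    · simp
    · intro k
      have h0 : ((0 : Matrix Empty Empty F) - 1) ^ k = 0 := Subsingleton.elim _ _
      rw [h0, Matrix.rank_zero]
      simp
  · rcases Nat.even_or_odd a with hae | hao
    · have hc : 2 ≤ s.count a := by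
        have h1 : 0 < s.count a := Multiset.count_pos.mpr ha
        obtain ⟨c, hc⟩ := hpar a hae
        omega
      obtain ⟨s', hs'⟩ := Multiset.exists_cons_of_mem ha
      have ha' : a ∈ s' := by
        rw [hs', Multiset.count_cons_self] at hc
        exact Multiset.count_pos.mp (by omega)
      obtain ⟨s'', hs''⟩ := Multiset.exists_cons_of_mem ha'
      subst hs''
      subst hs'
      have hpar'' : ∀ j, Even j → Even (s''.count j) := by
        intro j hj
        have h := hpar j hj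
        by_cases hja : j = a
        · subst hja
          rw [Multiset.count_cons_self, Multiset.count_cons_self] at h
          obtain ⟨c, hc'⟩ := h
          exact ⟨c - 1, by omega⟩
        · rw [Multiset.count_cons_of_ne hja, Multiset.count_cons_of_ne hja] at h
          exact h
      have hlt : Multiset.card s'' < n := by
        rw [← hn, Multiset.card_cons, Multiset.card_cons]
        omega
      obtain ⟨κ, hF, hD, A, M, hs1, hd1, hi1, hc1, hr1⟩ := ih (Multiset.card s'') hlt s'' hpar'' rfl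
      obtain ⟨A₀, M₀, hs0, hd0, hi0, hr0⟩ := hpair a
      obtain ⟨e1, e2, e3, e4⟩ := jo_combine A₀ M₀ A M hs0 hd0 hi0 hs1 hd1 hi1
      refine ⟨(Fin a ⊕ Fin a) ⊕ κ, inferInstance, inferInstance, fromBlocks A₀ 0 0 A,
        fromBlocks M₀ 0 0 M, e1, e2, e3, ?_, ?_⟩
      · simp [hc1, add_assoc]
      · intro k
        rw [e4 k, hr0 k, hr1 k]
        simp [add_assoc]
    · obtain ⟨s', hs'⟩ := Multiset.exists_cons_of_mem ha
      subst hs'
      have hpar' : ∀ j, Even j → Even (s'.count j) := by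
        intro j hj
        have h := hpar j hj
        have hja : j ≠ a := by
          rintro rfl
          exact (Nat.not_even_iff_odd.mpr hao) hj
        rw [Multiset.count_cons_of_ne hja] at h
        exact h
      have hlt : Multiset.card s' < n := by
        rw [← hn, Multiset.card_cons]
        omega
      obtain ⟨κ, hF, hD, A, M, hs1, hd1, hi1, hc1, hr1⟩ := ih (Multiset.card s') hlt s' hpar' rfl
      obtain ⟨A₀, M₀, hs0, hd0, hi0, hr0⟩ := hodd a hao
      obtain ⟨e1, e2, e3, e4⟩ := jo_combine A₀ M₀ A M hs0 hd0 hi0 hs1 hd1 hi1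
      refine ⟨Fin a ⊕ κ, inferInstance, inferInstance, fromBlocks A₀ 0 0 A,
        fromBlocks M₀ 0 0 M, e1, e2, e3, ?_, ?_⟩
      · simp [hc1]
      · intro k
        rw [e4 k, hr0 k, hr1 k]
        simp

end Cfsg.Agent.Helper23
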